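-- Team project OPARM (S5991), cut of [UNIME], package [UEW] (helper80): Witt — an isometry
-- between two subspaces is induced by an element of the isometry group
-- (helper61's `witt_fix` with `x = 1`).
import Cfsg.Agent.Lib.Helper64.OParM.UEDefs
import Cfsg.Agent.Lib.Helper61.OEll.CntM

set_option autoImplicit false
open scoped MatrixGroups
open Matrix

namespace Cfsg.Agent.Lib.Helper80.OParM

open Cfsg.Agent.Lib.Helper23.OHyp

universe u

/-- [UEW] -/
theorem pkgUEW : Cfsg.Agent.Lib.Helper64.OParM.PkgUEW.{u} := by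
  intro F _ _ ι _ _ Q hQ W W' hiso
  obtain ⟨e, he⟩ := hiso
  have hfix : fixSp (1 : Matrix ι ι F) = ⊤ := fixSp_one
  have hmov : movSp (1 : Matrix ι ι F) = ⊥ := by
    unfold movSp
    rw [Matrix.toLin'_one]
    have : (LinearMap.id : (ι → F) →ₗ[F] (ι → F)) - 1 = 0 := sub_self _
    rw [this, LinearMap.range_zero]
  have hQ0 : Q 0 = 0 := by
    have h := hQ.smul 0 0
    simpa using h
  have hPerp : Perp Q (fixSp (1 : Matrix ι ι F)) (movSp (1 : Matrix ι ι F)) := by
    intro u _ v hv
    rw [hmov, Submodule.mem_bot] at hv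
    rw [hv, QuadraticMap.polar, add_zero, hQ0]
    ring
  have hCompl : IsCompl (fixSp (1 : Matrix ι ι F)) (movSp (1 : Matrix ι ι F)) := by
    rw [hfix, hmov]
    exact isCompl_top_bot
  obtain ⟨g, hg, -, hmap⟩ := Cfsg.Agent.Lib.Helper61.OEll.witt_fix hQ hPerp hCompl W W'
    (by rw [hfix]; exact le_top) (by rw [hfix]; exact le_top) e he
  exact ⟨g, hg, hmap⟩

end Cfsg.Agent.Lib.Helper80.OParM
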