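-- Team project OPARM (S5991), cut of [UNIME], package [UEA] (helper80): the abstract structure
-- lemma for `x = [J_3, J_2^(k-1), J_1]`.
import Cfsg.Agent.Lib.Helper64.OParM.UEDefs
import Cfsg.Agent.Lib.Helper80.OPar.UB
import Cfsg.Agent.Lib.Helper80.OPar.Alt

set_option autoImplicit false

namespace Cfsg.Agent.Lib.Helper80.OParM

open Module Cfsg.Agent.Lib.Helper80.OPar

universe u

theorem finrank_map_add80 {F : Type*} [Field F] {V V' : Type*} [AddCommGroup V] [Module F V]
    [AddCommGroup V'] [Module F V'] [FiniteDimensional F V] (f : V →ₗ[F] V')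
    (p : Submodule F V) :
    finrank F (p.map f) + finrank F ↥(p ⊓ LinearMap.ker f) = finrank F p := by
  have h := LinearMap.finrank_range_add_finrank_ker (f.domRestrict p)
  rw [LinearMap.range_domRestrict, LinearMap.ker_domRestrict] at h
  have e : finrank F ((LinearMap.ker f).comap p.subtype) = finrank F ↥(p ⊓ LinearMap.ker f) := by
    have h1 : (LinearMap.ker f).comap p.subtype = (p ⊓ LinearMap.ker f).comap p.subtype := by
      ext x
      simp
    rw [h1]
    exact (Submodule.comapSubtypeEquivOfLe inf_le_left).finrank_eq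
  rw [e] at h
  exact h

/-- [UEA] -/
theorem pkgUEA : Cfsg.Agent.Lib.Helper64.OParM.PkgUEA.{u} := by
  intro F _ V _ _ _ h2 B N t hsym hiso hN3 hNt hker hrk W hW hnd hmod
  have adj : ∀ u v, B (N u) v = -B u (N v) + B u (N (N v)) := by
    intro u v
    have h := hiso u (v - N v + N (N v))
    have e : v - N v + N (N v) + N (v - N v + N (N v)) = v := by
      simp only [map_add, map_sub, hN3]
      abel
    rw [e] at h
    simp only [map_add, map_sub, LinearMap.add_apply] at h
    linear_combination h
  have adj2 : ∀ u v, B (N (N u)) v = B u (N (N v)) := by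
    intro u v
    rw [adj (N u) v, adj u (N v), adj u (N (N v)), hN3 v]
    simp
  have hpk : ∀ u v : V, N v = 0 → B (N u) v = 0 := by
    intro u v hv
    rw [adj, hv]
    simp
  -- the restrictions to `W`
  let BW : W →ₗ[F] W →ₗ[F] F := B.domRestrict₁₂ W W
  let NW : W →ₗ[F] W := N.restrict hW
  have hBW : ∀ u v : W, BW u v = B u v := fun u v => rfl
  have hNW : ∀ u : W, ((NW u : W) : V) = N u := fun u => rfl
  have hndW : ∀ w : W, w ≠ 0 → ∃ v : W, BW w v ≠ 0 := by
    intro w hw
    obtain ⟨v, hv, hvB⟩ := hnd w.1 w.2 (fun h => hw (Subtype.ext h))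
    exact ⟨⟨v, hv⟩, hvB⟩
  have hkerW : ∀ k : W, k ∈ LinearMap.ker NW ↔ N (k : V) = 0 := by
    intro k
    rw [LinearMap.mem_ker]
    constructor
    · intro h
      rw [← hNW, h]; rfl
    · intro h
      exact Subtype.ext (by rw [hNW, h]; rfl)
  -- range NW = (ker NW)^⊥
  have hI_perp : LinearMap.range NW = perp80 BW (LinearMap.ker NW) := by
    apply Submodule.eq_of_le_of_finrank_eq
    · rintro _ ⟨u, rfl⟩
      rw [mem_perp80]
      intro k hk
      rw [hBW, hNW, hsym]
      exact hpk _ _ ((hkerW k).mp hk)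
    · have h1 := LinearMap.finrank_range_add_finrank_ker NW
      have h3 := finrank_perp80 BW hndW (LinearMap.ker NW)
      omega
  have hmemI : ∀ v : W, (∃ u : V, (v : V) = N u) → v ∈ LinearMap.range NW := by
    rintro v ⟨u, hu⟩
    rw [hI_perp, mem_perp80]
    intro k hk
    rw [hBW, hu, hsym]
    exact hpk _ _ ((hkerW k).mp hk)
  -- the rank of NW is even
  have hρ1 : Even (finrank F (LinearMap.range NW)) := by
    let L : W →ₗ[F] W := NW - (2 : F)⁻¹ • (NW ∘ₗ NW)
    have hL : ∀ u : W, ((L u : W) : V) = N u - (2 : F)⁻¹ • N (N u) := fun u => rfl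
    have hskew : ∀ u v : W, BW (L u) v = -BW u (L v) := by
      intro u v
      rw [hBW, hBW, hL, hL]
      simp only [map_sub, map_smul, LinearMap.sub_apply, LinearMap.smul_apply, smul_eq_mul]
      rw [adj, adj2]
      have h2' : (2 : F)⁻¹ * 2 = 1 := inv_mul_cancel₀ h2
      linear_combination (-(B (u : V) (N (N (v : V))))) * h2'
    have haltL : ∀ u : W, BW (L u) u = 0 := by
      intro u
      have h := hskew u u
      rw [hBW, hBW, hsym (u : V)] at h
      rw [hBW]
      have h3 : (2 : F) * B (L u : V) (u : V) = 0 := by linear_combination h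
      rcases mul_eq_zero.mp h3 with h4 | h4
      · exact absurd h4 h2
      · exact h4
    have hLker : ∀ k : W, k ∈ LinearMap.ker NW → L k = 0 := by
      intro k hk
      apply Subtype.ext
      rw [hL, (hkerW k).mp hk]
      simp
    have hLzero : ∀ c : W, L c = 0 → c ∈ LinearMap.ker NW := by
      intro c hc
      rw [hkerW]
      have h1 : N (c : V) - (2 : F)⁻¹ • N (N (c : V)) = 0 := by
        rw [← hL, hc]; rfl
      have h3 : N (N (c : V)) = 0 := by
        have := congrArg N h1
        rw [map_sub, map_smul, hN3, smul_zero, sub_zero, map_zero] at this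
        exact this
      rw [h3, smul_zero, sub_zero] at h1
      exact h1
    obtain ⟨C, hC⟩ := Submodule.exists_isCompl (LinearMap.ker NW)
    have hKC := Submodule.finrank_add_eq_of_isCompl hC
    have hrn := LinearMap.finrank_range_add_finrank_ker NW
    have hCe : Even (finrank F C) := by
      apply pkgAlt F C h2 ((BW ∘ₗ L).compl₁₂ C.subtype C.subtype)
      · intro c
        exact haltL c
      · intro c hc
        have hz : L (c : W) = 0 := by
          by_contra hne
          obtain ⟨v, hv⟩ := hndW _ hne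
          apply hv
          have hvtop : v ∈ LinearMap.ker NW ⊔ C := by
            rw [hC.sup_eq_top]; exact Submodule.mem_top
          obtain ⟨k, hk, c', hc', rfl⟩ := Submodule.mem_sup.mp hvtop
          rw [map_add]
          have h1 : BW (L (c : W)) k = 0 := by
            rw [hskew, hLker k hk, map_zero, neg_zero]
          have h2' : BW (L (c : W)) c' = 0 := hc ⟨c', hc'⟩
          rw [h1, h2', add_zero]
        have hmem : (c : W) ∈ LinearMap.ker NW ⊓ C := ⟨hLzero _ hz, c.2⟩
        rw [hC.inf_eq_bot, Submodule.mem_bot] at hmem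
        exact Subtype.ext hmem
    have : finrank F (LinearMap.range NW) = finrank F C := by omega
    rw [this]
    exact hCe
  -- rank of NW² ≤ 1
  have hρ2 : finrank F (LinearMap.range (NW ∘ₗ NW)) ≤ 1 := by
    have hle : (LinearMap.range (NW ∘ₗ NW)).map W.subtype ≤ LinearMap.range (N ∘ₗ N) := by
      rintro _ ⟨_, ⟨w, rfl⟩, rfl⟩
      exact ⟨w, rfl⟩
    have h1 := Submodule.finrank_mono hle
    rw [Submodule.finrank_map_subtype_eq] at h1
    omega
  -- J = I ⊓ K
  have hJ := finrank_map_add80 NW (LinearMap.range NW)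
  rw [← LinearMap.range_comp] at hJ
  have hJK : finrank F ↥(LinearMap.range NW ⊓ LinearMap.ker NW) ≤ finrank F (LinearMap.ker NW) :=
    Submodule.finrank_mono inf_le_right
  have hK1 : finrank F (LinearMap.ker NW) ≤
      finrank F ↥(LinearMap.range NW ⊓ LinearMap.ker NW) + 1 := by
    by_cases hsub : LinearMap.ker NW ≤ LinearMap.range NW
    · have : LinearMap.range NW ⊓ LinearMap.ker NW = LinearMap.ker NW := inf_eq_right.mpr hsub
      rw [this]
      omega
    · obtain ⟨v₁, hv₁K, hv₁I⟩ := Set.not_subset.mp hsub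
      obtain ⟨c₁, u₁, hcu₁⟩ := hker (v₁ : V) ((hkerW v₁).mp hv₁K)
      have hc₁ : c₁ ≠ 0 := by
        intro h0
        apply hv₁I
        apply hmemI
        exact ⟨u₁, by rw [hcu₁, h0, zero_smul, zero_add]⟩
      have hle : LinearMap.ker NW ≤
          (LinearMap.range NW ⊓ LinearMap.ker NW) ⊔ Submodule.span F {v₁} := by
        intro v₂ hv₂
        obtain ⟨c₂, u₂, hcu₂⟩ := hker (v₂ : V) ((hkerW v₂).mp hv₂)
        have hd : v₂ - (c₂ / c₁) • v₁ ∈ LinearMap.range NW ⊓ LinearMap.ker NW := by
          refine ⟨hmemI _ ⟨u₂ - (c₂ / c₁) • u₁, ?_⟩,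
            Submodule.sub_mem _ hv₂ (Submodule.smul_mem _ _ hv₁K)⟩
          rw [Submodule.coe_sub, Submodule.coe_smul, hcu₂, hcu₁, map_sub, map_smul, smul_add,
            smul_smul, div_mul_cancel₀ _ hc₁]
          abel
        have : v₂ = (v₂ - (c₂ / c₁) • v₁) + (c₂ / c₁) • v₁ := by abel
        rw [this]
        exact Submodule.add_mem_sup hd
          (Submodule.smul_mem _ _ (Submodule.mem_span_singleton_self v₁))
      have h1 := Submodule.finrank_mono hle
      have h3 := Submodule.finrank_add_le_finrank_add_finrank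
        (LinearMap.range NW ⊓ LinearMap.ker NW) (Submodule.span F {v₁})
      have h4 : finrank F (Submodule.span F {v₁}) ≤ 1 := by
        have := finrank_span_le_card (R := F) ({v₁} : Set W)
        simpa using this
      omega
  have hrn := LinearMap.finrank_range_add_finrank_ker NW
  obtain ⟨a, ha⟩ := hρ1
  -- the numbers
  have hρ2z : finrank F (LinearMap.range (NW ∘ₗ NW)) = 0 := by omega
  have hκ : finrank F (LinearMap.ker NW) =
      finrank F ↥(LinearMap.range NW ⊓ LinearMap.ker NW) + 1 := by omega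
  have hNN0 : ∀ v : W, N (N (v : V)) = 0 := by
    intro v
    have hbot : LinearMap.range (NW ∘ₗ NW) = ⊥ := Submodule.finrank_eq_zero.mp hρ2z
    have hm : (NW ∘ₗ NW) v ∈ LinearMap.range (NW ∘ₗ NW) := ⟨v, rfl⟩
    rw [hbot, Submodule.mem_bot] at hm
    have := congrArg Subtype.val hm
    exact this
  have hex : ∃ w : W, w ∈ LinearMap.ker NW ∧ w ∉ LinearMap.range NW := by
    by_contra hcon
    push Not at hcon
    have : LinearMap.range NW ⊓ LinearMap.ker NW = LinearMap.ker NW := inf_eq_right.mpr hcon
    rw [this] at hκ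
    omega
  obtain ⟨w, hwK, hwI⟩ := hex
  obtain ⟨c, u, hcu⟩ := hker (w : V) ((hkerW w).mp hwK)
  have hc : c ≠ 0 := by
    intro h0
    apply hwI
    apply hmemI
    exact ⟨u, by rw [hcu, h0, zero_smul, zero_add]⟩
  have hNy : N (N u) = 0 := by
    have h1 : N (w : V) = 0 := (hkerW w).mp hwK
    rw [hcu, map_add, map_smul, hNt, smul_zero, zero_add] at h1
    exact h1
  refine ⟨(w : V), w.2, c, hc, ?_, (LinearMap.range NW).map W.subtype, ?_, ?_, ?_, ?_⟩
  · rw [hcu]
    simp only [map_add, map_smul, LinearMap.add_apply, LinearMap.smul_apply, smul_eq_mul]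
    rw [hpk u t hNt, hsym t (N u), hpk u t hNt, hpk u (N u) hNy]
    ring
  · exact Submodule.map_subtype_le W _
  · rintro _ ⟨_, ⟨v, rfl⟩, rfl⟩
    exact hpk _ _ (hNN0 v)
  · rintro _ ⟨_, ⟨v, rfl⟩, rfl⟩
    exact hpk _ _ ((hkerW w).mp hwK)
  · rw [Submodule.finrank_map_subtype_eq]
    omega

end Cfsg.Agent.Lib.Helper80.OParM
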